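import Cfsg.Agent.KSG.KInv.AltC

namespace CL.KI

/-- the layer of an involution centraliser of an alternating group -/
theorem layer_alt {n : ℕ} (hn : 5 ≤ n) {t : alternatingGroup (Fin n)} (ht : orderOf t = 2) :
    CL.Comp.layerOf (C t) = ⊥ ∨ Cfsg.IsQuasisimple (CL.Comp.layerOf (C t)) := AltC.layer ht

end CL.KI
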