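import Cfsg.Agent.KSG.KInv.FiG
import Cfsg.Prelude.Def_Classification2

namespace CL.KI

/-- involution centralisers of Fi23 have at most one component, with solvable quotient -/
theorem one_Fi23 {G : Type*} [Group G] [Finite G] (h : Cfsg.Spor.IsoFi23 G) : AllOne G :=
  h.elim fun e => let ⟨_, h1, h2⟩ := FiA.ex23; (Fj.gd23 h1 h2).one.of_equiv e

end CL.KI
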