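import Cfsg.Agent.KSG.KInv.SpRu
import Cfsg.Prelude.Def_Classification2

namespace CL.KI

/-- involution centralisers of Ru have at most one component, with solvable quotient -/
theorem one_Ru {G : Type*} [Group G] [Finite G] (h : Cfsg.Spor.IsoRu G) : AllOne G :=
  h.elim allGd_Ru.one.of_equiv

end CL.KI
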