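import Cfsg.Agent.KSG.IX.Fin

namespace CL.KI

open CL.IX

theorem le_Exc {p : ℕ} (hp : p.Prime) (h2 : p ≠ 2) {G : Type*} [Group G] [Finite G] (h : Cfsg.IsExceptionalChevChar p G) : AllLe G 2 := by
  have := Fact.mk hp
  obtain ⟨F, _, _, _, ⟨-, ⟨e⟩⟩ | ⟨⟨e⟩⟩ | ⟨⟨e⟩⟩ | ⟨⟨e⟩⟩ | ⟨⟨e⟩⟩⟩ := h <;> have := Finite.of_equiv _ e.toEquiv <;>
    exact ((all_chev p h2 (by simp)).le p h2 (by simp)).of_equiv e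

end CL.KI
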