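import Cfsg.Agent.KSG.IC.Main

namespace CL.KI

theorem le_OMinus {p : ℕ} (_hp : p.Prime) (h2 : p ≠ 2) {G : Type*} [Group G] [Finite G] (h : Cfsg.IsPOmegaMinusChar p G) : AllLe G 4 :=
  (CL.IC.all_pomega h2 (.inr (.inr h))).2

end CL.KI
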