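import Cfsg.Agent.KSG.IX.Fin

namespace CL.KI

open CL.IX

theorem le_Tw {p : ℕ} (hp : p.Prime) (h2 : p ≠ 2) {G : Type*} [Group G] [Finite G] (h : Cfsg.IsTwistedE6D4Char p G) : AllLe G 2 := by
  have := Fact.mk hp
  obtain ⟨F, _, _, _, q, hq, ⟨hc, ⟨e⟩⟩ | ⟨hc, ⟨e⟩⟩⟩ := h <;> have := Finite.of_equiv _ e.toEquiv
  exacts [((all_2E6 p h2 hq hc).le p h2 (by simp)).of_equiv e, ((all_3D4 p h2 hq hc).le_D4 p h2).of_equiv e]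

end CL.KI
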