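import Cfsg.Agent.KSG.KInv.Sp35
import Cfsg.Agent.CHAR.Burnside

/-! # Groups whose elements of order `13` normalise no `r`-subgroups for primes `r` other than `2, 3, 13` -/

set_option autoImplicit false

namespace CL.KI

open Cfsg CL.MSS CL.Comp Subgroup Polynomial

/-- elements of order `13` normalise no `r`-subgroups for primes `r` other than `2, 3, 13` -/
def P13 (G : Type*) [Group G] : Prop := ∀ y : G, orderOf y = 13 → ∀ r : ℕ, r.Prime → 3 < r → r ≠ 13 →
  ∀ R : Subgroup G, IsPGroup r R → y ∈ normalizer (R : Set G) → R = ⊥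

variable {G : Type*} [Group G]

theorem P13.sub (h : P13 G) (H : Subgroup G) : P13 H := fun y hy r h1 h2 h3 _ h4 h5 =>
  (map_eq_bot_iff_of_injective _ H.subtype_injective).1 (h y ((orderOf_coe y).trans hy) r h1 h2 h3 _ (h4.map _)
    (le_normalizer_map H.subtype ⟨y, h5, rfl⟩))

theorem solv_of_23 {X : Type*} [Group X] [Finite X] (h : ∀ r : ℕ, r.Prime → 3 < r → ¬ r ∣ Nat.card X) :
    Group.IsSolvable X := Char.isSolvable_of_primes_subset_pair Nat.prime_two Nat.prime_three fun r hr e => by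
  have := hr.two_le
  have := mt (h r hr) (not_not.2 e)
  omega

variable [Finite G]

theorem P13.dich (h : P13 G) (h1 : 13 ∣ Nat.card G) (h2 : ¬ 13 ^ 2 ∣ Nat.card G) (N : Subgroup G) [N.Normal]
    (h3 : ¬ Group.IsSolvable N) : 13 ∣ Nat.card N ∧ Group.IsSolvable (G ⧸ N) := by
  have : Fact (Nat.Prime 13) := ⟨by norm_num⟩
  have h4 : 13 ∣ Nat.card N := by_contra fun h4 => h3 (solv_of_23 fun r r1 r2 r3 => by
    have := Fact.mk r1
    obtain ⟨P⟩ : Nonempty (Sylow r N) := inferInstance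
    obtain ⟨y, hy⟩ := exists_prime_orderOf_dvd_card' (G := normalizer ((P : Subgroup N).map N.subtype : Set G)) 13 (by
      refine (((by norm_num : Nat.Prime 13).dvd_mul.1 (N.card_mul_index ▸ h1)).resolve_left h4).trans ?_
      rw [← relIndex_top_right, ← P.normalizer_sup_eq_top, relIndex_sup_right]
      exact relIndex_dvd_card _ _)
    exact P.ne_bot_of_dvd_card r3 ((map_eq_bot_iff_of_injective _ N.subtype_injective).1
      (h y ((orderOf_coe y).trans hy) r r1 r2 (fun e => h4 (e ▸ r3)) _ (P.isPGroup'.map _) y.2)))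
  refine ⟨h4, solv_of_23 fun r r1 r2 r3 => ?_⟩
  have := Fact.mk r1
  have r4 : r ≠ 13 := fun e => h2 (N.card_mul_index ▸ sq 13 ▸ mul_dvd_mul h4 (e ▸ r3))
  obtain ⟨x, y, hx, hy, e⟩ := exists_comm_of_normal (q := r) h4 (fun e => h2 (e.trans (card_subgroup_dvd_card N))) r3
    (fun e => by
      have := Nat.le_of_dvd (by norm_num) e
      interval_cases r <;> first | omega | norm_num at r1)
  have := h x hx r r1 r2 r4 (zpowers y) (.of_card (n := 1) (by rw [Nat.card_zpowers, hy, pow_one]))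
    (centralizer_le_normalizer _ (by rintro _ ⟨k, rfl⟩; exact (Commute.zpow_left e.symm k :)))
  rw [zpowers_eq_bot] at this
  rw [this, orderOf_one] at hy
  omega

theorem P13.perfIn (h : P13 G) {H L : Subgroup G} (h1 : 13 ∣ Nat.card H) (h2 : ¬ 13 ^ 2 ∣ Nat.card H) (h3 : L ≤ H)
    (h4 : H ≤ normalizer (L : Set G)) (h5 : ⁅L, L⁆ = L) (h6 : L ≠ ⊥) : 13 ∣ Nat.card L ∧ PerfIn H L := by
  have := normal_subgroupOf_of_le_normalizer h4
  have h7 := (h.sub H).dich h1 h2 (L.subgroupOf H) fun e => h6 (eq_bot_of_perfect_of_solvable h5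
    (Group.isSolvable_of_surjective (f := (subgroupOfEquivOfLe h3).toMonoidHom) (MulEquiv.surjective _)))
  exact ⟨Nat.card_congr (subgroupOfEquivOfLe h3).toEquiv ▸ h7.1, perfIn_of_quot h7.2⟩

theorem P13.one (h : P13 G) {H : Subgroup G} (h1 : 13 ∣ Nat.card H) (h2 : ¬ 13 ^ 2 ∣ Nat.card H) : One H := by
  refine or_iff_not_imp_left.2 fun h0 => ?_
  obtain ⟨K, hK⟩ := not_forall_not.1 (mt layerOf_eq_bot_iff.2 h0)
  obtain ⟨h3, h4⟩ := h.perfIn h1 h2 (layerOf_le H) (le_normalizer_layerOf H) (commutator_layerOf_self H) h0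
  refine ⟨?_, h4⟩
  rw [le_antisymm ((h.perfIn h3 (fun e => h2 (e.trans (card_dvd_of_le (layerOf_le H)))) hK.le_layerOf
    hK.layerOf_le_normalizer hK.commutator_self hK.ne_bot).2 _ le_rfl (commutator_layerOf_self H)) hK.le_layerOf]
  exact hK.isQuasisimple

section
variable {V : Type*} [AddCommGroup V] [Module ℚ V] [Module.Finite ℚ V] {ρ : G →* Module.End ℚ V}
  (hi : Function.Injective ρ) (hd : Module.finrank ℚ V ≤ 24)
  (hz : ∀ y : G, orderOf y = 13 → aeval (ρ y) (cyclotomic 13 ℚ) = 0)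
include hi hd hz

omit [Finite G] in
theorem cent13 {y g : G} (hy : orderOf y = 13) {r : ℕ} (h1 : r.Prime) (h2 : 3 < r) (h3 : r ≠ 13) (e : Commute g y)
    {k : ℕ} (hg : g ^ r ^ k = 1) : g = 1 := by
  have p13 : Nat.Prime 13 := by norm_num
  have c : r.Coprime 13 := (Nat.coprime_primes h1 p13).2 h3
  induction k with
  | zero => simpa using hg
  | succ k ih =>
    refine ih ?_
    rw [pow_succ, pow_mul] at hg
    have e := e.pow_left (r ^ k)
    generalize g ^ r ^ k = g at *
    have a1 : aeval (ρ (g * y)) (cyclotomic (13 * r) ℚ * cyclotomic 13 ℚ) = 0 := by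
      rw [← cyclotomic_expand_eq_cyclotomic_mul h1 (h1.coprime_iff_not_dvd.1 c), expand_aeval, ← map_pow, e.mul_pow, hg,
        one_mul]
      exact hz _ (by rw [(hy ▸ c.symm : (orderOf y).Coprime r).orderOf_pow, hy])
    have a2 : IsCoprime (minpoly ℚ (ρ (g * y))) (cyclotomic (13 * r) ℚ) := by
      rw [isCoprime_comm, (cyclotomic.irreducible_rat (by omega)).coprime_iff_not_dvd]
      intro hd'
      have h1 := natDegree_le_of_dvd (hd'.trans (LinearMap.minpoly_dvd_charpoly _)) (LinearMap.charpoly_monic _).ne_zero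
      rw [natDegree_cyclotomic, LinearMap.charpoly_natDegree, Nat.totient_mul c.symm, Nat.totient_prime p13,
        Nat.totient_prime ‹_›] at h1
      omega
    have : Fact (Nat.Prime 13) := ⟨p13⟩
    have a3 := aeval_eq_zero_of_dvd_aeval_eq_zero ((a2.dvd_of_dvd_mul_left (minpoly.dvd _ _ a1)).mul_right (X - 1))
      (minpoly.aeval ℚ _)
    rw [cyclotomic_prime_mul_X_sub_one, map_sub, map_pow, aeval_X, map_one, sub_eq_zero, ← map_pow, e.mul_pow, ← hy,
      pow_orderOf_eq_one, mul_one, ← map_one ρ, hy] at a3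
    exact (pow_eq_one_iff_of_coprime c).1 ⟨hg, hi a3⟩

theorem p13_of_rep : P13 G := fun y hy r h1 h2 h3 R h4 h5 => by
  classical
  have : Fact (Nat.Prime 13) := ⟨by norm_num⟩
  have := Fintype.ofFinite R
  have a1 : ∀ z : G, orderOf z = 13 → z ∈ normalizer (R : Set G) →
      ∑ u : R, ρ (u * z * (u : G)⁻¹) = ρ z * ∑ u : R, ρ u := fun z hz' h => by
    let f : R → R := fun u => ⟨z⁻¹ * u * z * (u : G)⁻¹, mul_mem (by
      simpa using (mem_normalizer_iff.1 (inv_mem h) u).1 u.2) (inv_mem u.2)⟩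
    have hf : Function.Injective f := fun u v e => by
      obtain ⟨k, hk⟩ := h4 (v⁻¹ * u)
      refine (inv_mul_eq_one.1 (Subtype.ext (cent13 hi hd hz hz' h1 h2 h3 (k := k) ?_ (congrArg Subtype.val hk)))).symm
      have e' : z⁻¹ * u * z * (u : G)⁻¹ = z⁻¹ * v * z * (v : G)⁻¹ := congrArg Subtype.val e
      change (v : G)⁻¹ * u * z = z * ((v : G)⁻¹ * u)
      calc _ = (v : G)⁻¹ * z * (z⁻¹ * u * z * (u : G)⁻¹) * u := by group
        _ = _ := by rw [e']; group
    rw [Finset.mul_sum, ← Equiv.sum_comp (Equiv.ofBijective f hf.bijective_of_finite) fun u : R => ρ z * ρ u]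
    exact Finset.sum_congr rfl fun u _ => by rw [← map_mul]; simp [f, mul_assoc]
  have a2 : ∑ i ∈ Finset.range 13, ρ (y ^ i) = 0 := by
    simpa [cyclotomic_prime, map_sum] using hz y hy
  have a3 : ∑ i ∈ Finset.range 13, ∑ u : R, ρ (u * y ^ i * (u : G)⁻¹) = 0 := by
    rw [Finset.sum_comm]
    exact Finset.sum_eq_zero fun u _ => by
      simp only [map_mul, ← Finset.sum_mul, ← Finset.mul_sum, a2, mul_zero, zero_mul]
  rw [Finset.sum_range_succ', Finset.sum_congr rfl fun i hi => a1 _ (by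
    rw [Nat.Coprime.orderOf_pow, hy]
    rw [hy]; revert i; decide) (pow_mem h5 _), ← Finset.sum_mul] at a3
  rw [Finset.sum_range_succ', ← eq_neg_iff_add_eq_zero] at a2
  simp only [a2, pow_zero, map_one, neg_mul, one_mul, mul_one, mul_inv_cancel, neg_add_eq_zero, Finset.sum_const] at a3
  refine eq_bot_iff.2 fun s hs => hi ?_
  have a4 : ρ s * ∑ u : R, ρ u = ∑ u : R, ρ u := by
    rw [Finset.mul_sum, ← Equiv.sum_comp (Equiv.mulLeft (⟨s, hs⟩ : R)) fun u : R => ρ u]
    simp
  rw [a3, mul_smul_comm, mul_one, ← Nat.cast_smul_eq_nsmul ℚ, ← Nat.cast_smul_eq_nsmul ℚ] at a4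
  rw [map_one]
  exact smul_right_injective _ (Nat.cast_ne_zero.2 (Finset.card_univ.trans_ne Fintype.card_ne_zero)) a4

end

end CL.KI
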